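import Cfsg.Agent.Lib.Helper21.OAsch.Defs2

set_option autoImplicit false

namespace Cfsg.Agent.Lib.Helper15.OAsch

open Cfsg Cfsg.Geo Matrix Cfsg.Agent.Lib.Helper13.Asch Cfsg.Agent.Lib.Helper21.Asch
  Cfsg.Agent.Lib.Helper21.OAsch
open scoped Kronecker MatrixGroups

variable {ι : Type} [Fintype ι] [DecidableEq ι] {F : Type*} [Field F]
variable {Q : (ι → F) → F} {G : Matrix ι ι F}

/-- TB2 -/
theorem polar_conj (hO : OData Q G) {κ : Type} [Fintype κ] [DecidableEq κ] (e : ι ≃ κ) (P : GL ι F)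
    (x y : κ → F) :
    QuadraticMap.polar Q ((P : Matrix ι ι F) *ᵥ (x ∘ e)) ((P : Matrix ι ι F) *ᵥ (y ∘ e)) =
      ∑ a, ∑ b, x a * Gp e P G a b * y b := by
  rw [hO.polar]
  have h1 : ((P : Matrix ι ι F) *ᵥ (x ∘ e)) ⬝ᵥ (G *ᵥ ((P : Matrix ι ι F) *ᵥ (y ∘ e))) =
      (x ∘ e) ⬝ᵥ (((P : Matrix ι ι F)ᵀ * G * (P : Matrix ι ι F)) *ᵥ (y ∘ e)) := by
    rw [← Matrix.mulVec_mulVec, ← Matrix.mulVec_mulVec, Matrix.dotProduct_mulVec (x ∘ e),
      Matrix.vecMul_transpose]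
  rw [h1]
  simp only [dotProduct, Matrix.mulVec, Function.comp, Finset.mul_sum]
  rw [← Equiv.sum_comp e]
  refine Finset.sum_congr rfl fun i _ => ?_
  rw [← Equiv.sum_comp e]
  refine Finset.sum_congr rfl fun j _ => ?_
  simp [Gp, mul_assoc]

end Cfsg.Agent.Lib.Helper15.OAsch
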