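import Cfsg.Agent.Lib.Helper21.OAsch.Defs2

set_option autoImplicit false

namespace Cfsg.Agent.Lib.Helper15.OAsch

open Cfsg Cfsg.Geo Matrix Cfsg.Agent.Lib.Helper13.Asch Cfsg.Agent.Lib.Helper21.Asch
  Cfsg.Agent.Lib.Helper21.OAsch
open scoped Kronecker MatrixGroups

variable {ι : Type} [Fintype ι] [DecidableEq ι] {F : Type*} [Field F]
variable {Q : (ι → F) → F} {G : Matrix ι ι F}

/-- TB5 -/
theorem symmForm_bf {k : ℕ} (Γ : Matrix (Fin k) (Fin k) F) (hs : Γᵀ = Γ) (hu : IsUnit Γ.det) :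
    IsSymmetricForm (bf Γ) ∧ gramMatrix (bf Γ) = Γ := by
  have hsymm : ∀ u v, bf Γ u v = bf Γ v u := by
    intro u v
    unfold bf
    rw [Matrix.dotProduct_mulVec, ← Matrix.mulVec_transpose, hs, dotProduct_comm]
  have hnd : ∀ v : Fin k → F, v ≠ 0 → ∃ x, bf Γ x v ≠ 0 := by
    intro v hv
    have h1 : Γ *ᵥ v ≠ 0 := by
      intro h0
      apply hv
      have h2 : Γ⁻¹ *ᵥ (Γ *ᵥ v) = 0 := by rw [h0, Matrix.mulVec_zero]
      rwa [Matrix.mulVec_mulVec, Matrix.nonsing_inv_mul _ hu, Matrix.one_mulVec] at h2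
    obtain ⟨i, hi⟩ := Function.ne_iff.mp h1
    refine ⟨Pi.single i 1, ?_⟩
    unfold bf
    rw [single_one_dotProduct]
    exact hi
  refine ⟨⟨⟨?_, ?_, ?_, ?_⟩, hsymm, ?_⟩, ?_⟩
  · intro x y v
    unfold bf
    rw [add_dotProduct]
  · intro c x v
    unfold bf
    rw [smul_dotProduct, smul_eq_mul]
  · intro v x y
    unfold bf
    rw [Matrix.mulVec_add, dotProduct_add]
  · intro c v x
    unfold bf
    rw [Matrix.mulVec_smul, dotProduct_smul, smul_eq_mul]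
  · intro v hv
    obtain ⟨x, hx⟩ := hnd v hv
    exact ⟨⟨x, hx⟩, ⟨x, by rw [hsymm]; exact hx⟩⟩
  · ext a b
    unfold gramMatrix bf
    rw [single_one_dotProduct, Matrix.mulVec_single_one]
    rfl

end Cfsg.Agent.Lib.Helper15.OAsch
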