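import Cfsg.Agent.Lib.Helper21.OAsch.Defs2
import Cfsg.Agent.Lib.Helper15.OAsch.TB2
import Cfsg.Agent.Lib.Helper15.OAsch.TB5

set_option autoImplicit false

namespace Cfsg.Agent.Lib.Helper15.OAsch

open Cfsg Cfsg.Geo Matrix Cfsg.Agent.Lib.Helper13.Asch Cfsg.Agent.Lib.Helper21.Asch
  Cfsg.Agent.Lib.Helper21.OAsch
open scoped Kronecker MatrixGroups

variable {ι : Type} [Fintype ι] [DecidableEq ι] {F : Type*} [Field F]
variable {Q : (ι → F) → F} {G : Matrix ι ι F}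

/-- TT3 -/
theorem c4_of_gram (hO : OData Q G) (H : Subgroup (GL ι F)) {a b : ℕ} (e : ι ≃ Fin a × Fin b)
    (P : GL ι F) (ha : 3 ≤ a) (hab : a < b) (G₁ : GL (Fin a) F) (G₂ : GL (Fin b) F)
    (h1 : (G₁ : Matrix (Fin a) (Fin a) F)ᵀ = G₁) (h2 : (G₂ : Matrix (Fin b) (Fin b) F)ᵀ = G₂)
    (hG : Gp e P G = (G₁ : Matrix (Fin a) (Fin a) F) ⊗ₖ (G₂ : Matrix (Fin b) (Fin b) F))
    (hH : H ≤ tensorProductSubgroup a b e P) : C4 Q H := by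
  have u1 : IsUnit (G₁ : Matrix (Fin a) (Fin a) F).det :=
    (Matrix.isUnit_iff_isUnit_det _).mp G₁.isUnit
  have u2 : IsUnit (G₂ : Matrix (Fin b) (Fin b) F).det :=
    (Matrix.isUnit_iff_isUnit_det _).mp G₂.isUnit
  obtain ⟨s1, g1⟩ := symmForm_bf (G₁ : Matrix (Fin a) (Fin a) F) h1 u1
  obtain ⟨s2, g2⟩ := symmForm_bf (G₂ : Matrix (Fin b) (Fin b) F) h2 u2
  refine ⟨a, b, e, P, bf (G₁ : Matrix (Fin a) (Fin a) F), bf (G₂ : Matrix (Fin b) (Fin b) F),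
    ha, hab, s1, s2, ⟨1, one_ne_zero, ?_⟩, hH⟩
  intro x y
  rw [polar_conj hO e P x y, g1, g2, hG, one_mul]
  rfl

end Cfsg.Agent.Lib.Helper15.OAsch
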