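import Cfsg.Agent.Lib.Helper21.OAsch.Defs2

set_option autoImplicit false

namespace Cfsg.Agent.Lib.Helper15.OAsch

open Cfsg Cfsg.Geo Matrix Cfsg.Agent.Lib.Helper13.Asch Cfsg.Agent.Lib.Helper21.Asch
  Cfsg.Agent.Lib.Helper21.OAsch
open scoped Kronecker MatrixGroups

variable {ι : Type} [Fintype ι] [DecidableEq ι] {F : Type*} [Field F]
variable {Q : (ι → F) → F} {G : Matrix ι ι F}

/-- TT4 -/
theorem Gp_swap {a b : ℕ} (e : ι ≃ Fin a × Fin b) (P : GL ι F) (G₁ : Matrix (Fin a) (Fin a) F)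
    (G₂ : Matrix (Fin b) (Fin b) F) (hG : Gp e P G = G₁ ⊗ₖ G₂) :
    Gp (e.trans (Equiv.prodComm _ _)) P G = G₂ ⊗ₖ G₁ := by
  ext ⟨j, i⟩ ⟨j', i'⟩
  have h := congrFun (congrFun hG (i, j)) (i', j')
  unfold Gp at h ⊢
  simp only [Matrix.reindex_apply, Matrix.submatrix_apply, Matrix.kroneckerMap_apply] at h ⊢
  rw [mul_comm, ← h]
  rfl

end Cfsg.Agent.Lib.Helper15.OAsch
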