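import Cfsg.Agent.Lib.Helper21.OAsch.Defs2
import Cfsg.Agent.Lib.Helper15.OAsch.TB2
import Cfsg.Agent.Lib.Helper15.OAsch.TB5

set_option autoImplicit false

namespace Cfsg.Agent.Lib.Helper15.OAsch

open Cfsg Cfsg.Geo Matrix Cfsg.Agent.Lib.Helper13.Asch Cfsg.Agent.Lib.Helper21.Asch
  Cfsg.Agent.Lib.Helper21.OAsch
open scoped Kronecker MatrixGroups

variable {ι : Type} [Fintype ι] [DecidableEq ι] {F : Type*} [Field F]
variable {Q : (ι → F) → F} {G : Matrix ι ι F}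

/-- TW6 -/
theorem c7_of_gram [Fintype F] (hO : OData Q G) (H : Subgroup (GL ι F)) {k t : ℕ}
    (e : ι ≃ (Fin t → Fin k)) (P : GL ι F) (hk : 3 ≤ k) (ht : 2 ≤ t)
    (hex : ¬ (Fintype.card F = 3 ∧ k = 3)) (Γ₀ : Matrix (Fin k) (Fin k) F) (hs : Γ₀ᵀ = Γ₀)
    (hu : IsUnit Γ₀.det) (c : F) (hc : c ≠ 0) (hG : Gp e P G = c • pureT (fun _ => Γ₀))
    (hH : H ≤ tensorWreathSubgroup k t e P) : C7 Q H := by
  obtain ⟨s1, g1⟩ := symmForm_bf Γ₀ hs hu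
  refine ⟨k, t, e, P, bf Γ₀, hk, ht, hex, s1, ⟨c, hc, ?_⟩, hH⟩
  intro x y
  rw [polar_conj hO e P x y, g1, hG, Finset.mul_sum]
  refine Finset.sum_congr rfl fun a _ => ?_
  rw [Finset.mul_sum]
  refine Finset.sum_congr rfl fun b _ => ?_
  simp only [Matrix.smul_apply, pureT_apply, smul_eq_mul, id]
  ring

end Cfsg.Agent.Lib.Helper15.OAsch
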